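import Mathlib
import Cfsg.Agent.Lib.Helper58.QSim.Defs
import Cfsg.Agent.Lib.Helper40.Elusive

/-!
# QSim (S5981), package [BLK]: the block element `diag(A, ..., A, 1)`.
-/

set_option autoImplicit false
open scoped MatrixGroups Matrix

namespace Cfsg.Agent.Lib.Helper61.QSim

open Polynomial Cfsg.Agent.Lib.Helper40 Cfsg.Agent.Lib.Helper58.QSim

universe u

/-- The model element with its exact characteristic polynomial. -/
theorem blk_core {F : Type u} [Field F] [Fintype F] {p q : ℕ} [Fact p.Prime] [CharP F p]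
    (hF : Fintype.card F = q) (n r : ℕ) [Fact r.Prime] (hrp : r ≠ p)
    (hi : 2 ≤ orderOf (q : ZMod r)) :
    ∃ (g : GL (Fin n) F) (π : F[X]), g ^ r = 1 ∧ (g : Matrix (Fin n) (Fin n) F).det = 1 ∧
      Irreducible π ∧ π.natDegree = orderOf (q : ZMod r) ∧ π ∣ (X ^ r - 1 : F[X]) ∧
      (g : Matrix (Fin n) (Fin n) F).charpoly =
        (X - C 1) ^ (n - orderOf (q : ZMod r) * (n / orderOf (q : ZMod r))) *
          π ^ (n / orderOf (q : ZMod r)) := by
  classical
  have hr : r.Prime := Fact.out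
  obtain ⟨S, hS, ⟨π₀, hπ₀⟩⟩ := Elusive.exists_factors hF r hrp
  set i := orderOf (q : ZMod r) with hidef
  let a : S → ℕ := fun π => if π.1 = π₀ then n / i else 0
  have hsum : ∑ π, a π = n / i := by
    rw [Finset.sum_eq_single ⟨π₀, hπ₀⟩]
    · simp [a]
    · intro b _ hb
      have : b.1 ≠ π₀ := fun h => hb (Subtype.ext h)
      simp [a, this]
    · intro h
      exact absurd (Finset.mem_univ _) h
  have hprod : ∏ π : S, π.1 ^ a π = π₀ ^ (n / i) := by
    rw [Finset.prod_eq_single ⟨π₀, hπ₀⟩]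
    · simp [a]
    · intro b _ hb
      have : b.1 ≠ π₀ := fun h => hb (Subtype.ext h)
      simp [a, this]
    · intro h
      exact absurd (Finset.mem_univ _) h
  have ha : i * ∑ π, a π ≤ n := by
    rw [hsum]
    exact Nat.mul_div_le n i
  obtain ⟨g, hg, hχ⟩ := PrimeOrderGL.exists_GL_chi p hS hr.pos a ha
  have hgr : (g : Matrix (Fin n) (Fin n) F) ^ r = 1 := by
    rw [← Units.val_pow_eq_pow_val, hg]
    rfl
  have hq2 : 2 ≤ q := by
    rw [← hF]
    exact Fintype.one_lt_card
  have hdet : (g : Matrix (Fin n) (Fin n) F).det = 1 := by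
    have h1 : (g : Matrix (Fin n) (Fin n) F).det ^ r = 1 := by
      rw [← Matrix.det_pow, hgr, Matrix.det_one]
    have h0 : (g : Matrix (Fin n) (Fin n) F).det ≠ 0 := by
      intro h
      rw [h, zero_pow hr.ne_zero] at h1
      exact zero_ne_one h1
    have h2 : (g : Matrix (Fin n) (Fin n) F).det ^ (q - 1) = 1 := by
      rw [← hF]
      exact FiniteField.pow_card_sub_one_eq_one _ h0
    have h3 : ¬ r ∣ q - 1 := by
      intro h
      have h' := (Elusive.dvd_pow_sub_one_iff q r (by omega) 1).1 (by simpa using h)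
      have := Nat.le_of_dvd one_pos h'
      omega
    have h4 : Nat.gcd r (q - 1) = 1 := (Nat.Prime.coprime_iff_not_dvd hr).2 h3
    have h5 := pow_gcd_eq_one.2 ⟨h1, h2⟩
    rwa [h4, pow_one] at h5
  refine ⟨g, π₀, hg, hdet, hS.irred π₀ hπ₀, hS.deg π₀ hπ₀, hS.dvd π₀ hπ₀, ?_⟩
  rw [hχ]
  unfold PrimeOrderGL.chi
  rw [hprod, hsum]

/-- [BLK]. -/
theorem pkgBlk : PkgBlk.{u} := by
  intro F _ _ n r hr hrq hrq1 hin
  classical
  have : Fact r.Prime := ⟨hr⟩
  obtain ⟨p, hp⟩ := CharP.exists F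
  have : Fact p.Prime := ⟨CharP.char_is_prime F p⟩
  have hrp : r ≠ p := by
    rintro rfl
    exact hrq (Elusive.char_dvd_card r)
  have hq2 : 2 ≤ Fintype.card F := Fintype.one_lt_card
  have hpos : 0 < orderOf ((Fintype.card F : ℕ) : ZMod r) := Elusive.orderOf_pos_of_ne rfl r hrp
  have hi : 2 ≤ orderOf ((Fintype.card F : ℕ) : ZMod r) := by
    by_contra hlt
    have h1 : orderOf ((Fintype.card F : ℕ) : ZMod r) = 1 := by omega
    apply hrq1
    have := (Elusive.dvd_pow_sub_one_iff (Fintype.card F) r (by omega) 1).2 (by rw [h1])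
    simpa using this
  obtain ⟨g, π, hg, hdet, hirr, hdeg, hdvd, hχ⟩ := blk_core (F := F) rfl n r hrp hi
  set i := orderOf ((Fintype.card F : ℕ) : ZMod r) with hidef
  set M : Matrix (Fin n) (Fin n) F := (g : Matrix (Fin n) (Fin n) F) with hMdef
  have hgr : M ^ r = 1 := by
    rw [hMdef, ← Units.val_pow_eq_pow_val, hg]
    rfl
  have hrF : (r : F) ≠ 0 := Elusive.natCast_ne_zero_of_ne r hrp
  have hapos : 0 < n / i := Nat.div_pos hin hpos
  have hile : i * (n / i) ≤ n := Nat.mul_div_le n i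
  -- π has no root at 1
  have hroot : ¬ IsRoot (π ^ (n / i)) 1 := by
    intro h
    rw [IsRoot, eval_pow] at h
    have h1 : IsRoot π 1 := pow_eq_zero_iff (hapos.ne') |>.1 h
    have h2 := degree_eq_one_of_irreducible_of_root hirr h1
    have h3 : π.natDegree = 1 := natDegree_eq_of_degree_eq_some (by rw [h2]; rfl)
    omega
  -- the minimal polynomial divides (X - 1) * π
  have hmin : minpoly F M ∣ (X - C 1) * π := by
    have hsq : Squarefree (X ^ r - C (1 : F)) :=
      (separable_X_pow_sub_C (1 : F) hrF one_ne_zero).squarefree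
    have h1 : minpoly F M ∣ X ^ r - C (1 : F) := by
      apply minpoly.dvd
      simp [hgr]
    have h2 : Squarefree (minpoly F M) := hsq.squarefree_of_dvd h1
    have h3 : minpoly F M ∣ ((X - C 1) * π) ^ ((n - i * (n / i)) + n / i) := by
      refine (Matrix.minpoly_dvd_charpoly M).trans ?_
      rw [hχ, mul_pow]
      exact mul_dvd_mul (pow_dvd_pow _ (Nat.le_add_right _ _)) (pow_dvd_pow _ (Nat.le_add_left _ _))
    exact (h2.dvd_pow_iff_dvd (by omega)).1 h3
  have hkill : aeval M π * (M - (1 : F) • (1 : Matrix (Fin n) (Fin n) F)) = 0 := by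
    obtain ⟨c, hc⟩ := hmin
    have h1 : aeval M (π * (X - C 1)) = 0 := by
      rw [mul_comm, hc, map_mul, minpoly.aeval, zero_mul]
    rw [map_mul] at h1
    rw [← h1]
    congr 1
    simp
  -- rank of x - 1
  have hrank : (M - (1 : F) • (1 : Matrix (Fin n) (Fin n) F)).rank = n / i * i := by
    have hss := isSemisimple_of_pow_eq_one M r hrF hgr
    have h1 := (Module.End.isFinitelySemisimple_iff_isSemisimple.mpr hss).maxGenEigenspace_eq_eigenspace (1 : F)
    have h2 := LinearMap.finrank_maxGenEigenspace_eq (Matrix.toLin' M) (1 : F)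
    rw [h1, Matrix.charpoly_toLin', hχ] at h2
    have hne : (X - C 1 : F[X]) ^ (n - i * (n / i)) * π ^ (n / i) ≠ 0 :=
      mul_ne_zero (pow_ne_zero _ (X_sub_C_ne_zero 1)) (pow_ne_zero _ hirr.ne_zero)
    rw [rootMultiplicity_mul hne, rootMultiplicity_X_sub_C_pow,
      rootMultiplicity_eq_zero hroot, add_zero] at h2
    have h3 := Diag.finrank_eigenspace_add_rank M (1 : F)
    rw [h2] at h3
    have h4 : n / i * i = i * (n / i) := mul_comm _ _
    omega
  refine ⟨g, π, ⟨?_, ⟨1, ?_⟩, ?_⟩, hg, hirr, hdeg, hdvd, hkill, hrank⟩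
  · rw [Cfsg.Geo.specialLinear, MonoidHom.mem_ker]
    apply Units.ext
    rw [Matrix.GeneralLinearGroup.val_det_apply]
    exact hdet
  · rw [hg]
    simp
  · intro z hz
    have h1 : π ∣ (Matrix.toLin' M).charpoly := by
      rw [Matrix.charpoly_toLin', hχ]
      exact (dvd_pow_self π hapos.ne').trans (Dvd.intro_left _ rfl)
    have h2 : aeval (Matrix.toLin' M) (X - C z) = 0 := by
      rw [Diag.aeval_toLin']
      have : aeval M (X - C z) = 0 := by
        simp [show M = z • (1 : Matrix (Fin n) (Fin n) F) from hz, Algebra.algebraMap_eq_smul_one]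
      rw [this, map_zero]
    have h3 := Elusive.irr_dvd _ π hirr h1 _ h2
    have h4 := natDegree_le_of_dvd h3 (X_sub_C_ne_zero z)
    rw [natDegree_X_sub_C] at h4
    omega

end Cfsg.Agent.Lib.Helper61.QSim
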